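import Cfsg.Agent.Lib.DefectOne.Principal
import Cfsg.Agent.Lib.BlockLocal.ClassFunctional
import Cfsg.Agent.Lib.Blocks.CentralDefect

/-!
# The orbit attached to a block of the centralizer
-/

set_option autoImplicit false
set_option linter.style.haveILetI false
set_option linter.unusedSectionVars false

open Cfsg CfsgLib.Blocks
open scoped ComplexConjugate

namespace CfsgLib.DefectOne

variable {G : Type*} [Group G] [Fintype G] {p : ℕ} [Fact p.Prime] (hG : ExactPrime G p) (S : Sect G p)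

/-- The centralizer of `u`. -/
abbrev Sect.C : Subgroup G := Subgroup.centralizer ((Subgroup.zpowers S.u : Subgroup G) : Set G)

theorem Sect.mem_centralizer_iff' (g : G) :
    g ∈ S.C ↔ g * S.u = S.u * g := by
  rw [Subgroup.mem_centralizer_iff]
  refine ⟨fun h => (h S.u (Subgroup.mem_zpowers _)).symm, fun h x hx => ?_⟩
  obtain ⟨i, rfl⟩ := Subgroup.mem_zpowers_iff.1 hx
  exact ((show Commute g S.u from h).zpow_right i).eq.symm

/-- The element `u ^ i * v` of the centralizer. -/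
def Sect.elt (i : ℕ) (v : S.V) :
    S.C :=
  ⟨S.u ^ i * v, (S.mem_centralizer_iff' _).2 (((Commute.refl S.u).pow_left i).mul_left (S.comm v)).eq⟩

include hG

theorem Sect.exists_elt (c : S.C) :
    ∃ i v, c = S.elt i v := by
  obtain ⟨M, hM⟩ := exists_isPModular_of_prime hG.prime
  haveI := isPrime_of_isPModular hM
  obtain ⟨x, hx, v, hv⟩ := exists_decomp S.ord hG.sq hM S.V.subtype S.range_subtype
    ((S.mem_centralizer_iff' _).1 c.2)
  obtain ⟨i, hi⟩ := (mem_powers_iff_mem_zpowers).2 hx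
  exact ⟨i, v, Subtype.ext (by
    show (c : G) = S.u ^ i * v
    rw [hv, show S.u ^ i = x from hi]
    rfl)⟩

/-- The restriction to `V` of a character of the centralizer trivial on `u`. -/
theorem exists_res
    (θ : IrrCharacter (S.C))
    (hθ : ∀ x : S.C,
      (x : G) ∈ Subgroup.zpowers S.u → (θ : S.C → ℂ) x = (θ : S.C → ℂ) 1) :
    ∃ φ : IrrCharacter S.V, (∀ i v, (θ : S.C → ℂ) (S.elt i v) = (φ : S.V → ℂ) v) ∧
      (θ : S.C → ℂ) 1 = (φ : S.V → ℂ) 1 := by
  classical
  haveI := Fintype.ofFinite (S.C)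
  let ι : S.V →* S.C := S.V.subtype.codRestrict _ fun v => (S.mem_centralizer_iff' _).2 (S.comm v).eq
  have hι : ∀ v, ι v = S.elt 0 v := fun v => Subtype.ext (by
    show (v : G) = S.u ^ 0 * v
    rw [pow_zero, one_mul])
  have hch : IsCharacter S.V fun v => (θ : S.C → ℂ) (ι v) := by
    obtain ⟨n, ρ, hρ⟩ := CharTheory.IsIrrCharacter.isCharacter θ.2
    exact ⟨n, ρ.comp ι, funext fun v => congrFun hρ (ι v)⟩
  have hval : ∀ i v, (θ : S.C → ℂ) (S.elt i v) = (θ : S.C → ℂ) (ι v) := fun i v => by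
    let z : S.C := ⟨S.u ^ i, (S.mem_centralizer_iff' _).2 ((Commute.refl S.u).pow_left i).eq⟩
    rw [show S.elt i v = z * ι v from rfl]
    exact irr_mul_of_trivial θ (hθ z (Subgroup.pow_mem _ (Subgroup.mem_zpowers _) i)) _
  have hbij : Function.Bijective fun x : Fin p × S.V => S.elt x.1 x.2 := by
    refine ⟨fun x y h => ?_, fun c => ?_⟩
    · obtain ⟨h1, h2⟩ := S.sect_inj hG (congrArg Subtype.val h)
      refine Prod.ext (Fin.ext ?_) h2
      rw [pow_eq_pow_iff_modEq, S.ord] at h1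
      unfold Nat.ModEq at h1
      rwa [Nat.mod_eq_of_lt x.1.2, Nat.mod_eq_of_lt y.1.2] at h1
    · obtain ⟨i, v, rfl⟩ := S.exists_elt hG c
      exact ⟨(⟨i % p, Nat.mod_lt _ hG.prime.pos⟩, v), Subtype.ext (by
        show S.u ^ (i % p) * (v : G) = S.u ^ i * v
        rw [pow_mod_u S])⟩
  have hcard : Nat.card S.C = p * Nat.card S.V := by
    rw [← Nat.card_eq_of_bijective _ hbij, Nat.card_prod, Nat.card_fin]
  have hnorm : classInner (fun v => (θ : S.C → ℂ) (ι v)) (fun v => (θ : S.C → ℂ) (ι v)) = 1 := by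
    have h := CharTheory.classInner_self_of_isIrr θ.2
    rw [classInner, hcard, ← (Equiv.ofBijective _ hbij).sum_comp, Fintype.sum_prod_type] at h
    simp only [Equiv.ofBijective_apply, hval, Finset.sum_const, Finset.card_univ, Fintype.card_fin,
      nsmul_eq_mul] at h
    have hp : (p : ℂ) ≠ 0 := Nat.cast_ne_zero.2 hG.prime.ne_zero
    rw [Nat.cast_mul, mul_inv, mul_comm (p : ℂ)⁻¹, mul_assoc, inv_mul_cancel_left₀ hp] at h
    exact h
  have h1 : (θ : S.C → ℂ) (ι 1) = (θ : S.C → ℂ) 1 := by rw [map_one]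
  refine ⟨⟨_, CharTheory.isIrrCharacter_of_norm_one (CharTheory.IsCharacter.isGeneralizedCharacter hch) hnorm ?_⟩, hval, h1.symm⟩
  obtain ⟨n, hn, hn'⟩ := CharTheory.exists_degree_of_isIrr θ.2
  rw [h1, hn', Complex.natCast_re]
  exact Nat.cast_pos.2 hn

omit hG in
theorem smul_iff_invariant
    {θ : IrrCharacter (S.C)}
    {φ : IrrCharacter S.V} (hφ : ∀ i v, (θ : S.C → ℂ) (S.elt i v) = (φ : S.V → ℂ) v) (hG : ExactPrime G p)
    (y : S.N) :
    y • φ = φ ↔ ∀ c c' : S.C,
      (c' : G) = (y : G) * c * (y : G)⁻¹ → (θ : S.C → ℂ) c' = (θ : S.C → ℂ) c := by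
  rw [S.smul_eq_iff]
  constructor
  · intro h c c' hcc
    obtain ⟨i, v, rfl⟩ := S.exists_elt hG c
    obtain ⟨l, hl⟩ := S.exists_unit_conj y
    have : c' = S.elt ((l : ZMod p).val * i) (S.conjV y v) := Subtype.ext (by
      rw [hcc]
      show (y : G) * (S.u ^ i * v) * (y : G)⁻¹ = S.u ^ ((l : ZMod p).val * i) * (S.conjV y v : G)
      rw [Sect.conjV_apply, ← S.conj_pow_val y hl i]
      group)
    rw [this, hφ, hφ, h]
  · intro h v
    have := h (S.elt 0 v) (S.elt 0 (S.conjV y v)) (by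
      show S.u ^ 0 * (S.conjV y v : G) = (y : G) * (S.u ^ 0 * v) * (y : G)⁻¹
      rw [pow_zero, one_mul, one_mul, Sect.conjV_apply])
    rwa [hφ, hφ] at this

/-- Conjugates of `u * v` in the centralizer come from the normalizer. -/
theorem Sect.mem_N_of_conj_mem {y : G} {v : S.V}
    (h : y * (S.u * v) * y⁻¹ ∈ S.C) :
    y ∈ S.N := by
  rw [S.mem_centralizer_iff'] at h
  set z := y⁻¹ * S.u * y with hz
  have h1 : Commute z (S.u * v) := by
    show y⁻¹ * S.u * y * (S.u * v) = S.u * v * (y⁻¹ * S.u * y)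
    calc y⁻¹ * S.u * y * (S.u * v) = y⁻¹ * (S.u * (y * (S.u * v) * y⁻¹)) * y := by group
      _ = y⁻¹ * (y * (S.u * v) * y⁻¹ * S.u) * y := by rw [h]
      _ = _ := by group
  have h2 : Commute z (S.u ^ (Nat.card G / p)) := by
    have h4 : (S.u * (v : G)) ^ (Nat.card G / p) = S.u ^ (Nat.card G / p) := by
      rw [(S.comm v).symm.mul_pow, S.pow_reg hG v, mul_one]
    rw [← h4]
    exact h1.pow_right _
  have hu : S.u ∈ Subgroup.zpowers (S.u ^ (Nat.card G / p)) := by
    rw [S.zpowers_pow hG hG.not_dvd_div]; exact Subgroup.mem_zpowers _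
  obtain ⟨a, ha⟩ := Subgroup.mem_zpowers_iff.1 hu
  have h3 : z * S.u = S.u * z := by
    rw [← ha]
    exact (h2.zpow_right a).eq
  obtain ⟨i, w, hw⟩ := S.exists_elt hG ⟨z, (S.mem_centralizer_iff' _).2 h3⟩
  have hw' : z = S.u ^ i * (w : G) := congrArg Subtype.val hw
  have hzp : z ^ p = 1 := by
    rw [hz, show y⁻¹ * S.u * y = y⁻¹ * S.u * y⁻¹⁻¹ by rw [inv_inv], conj_pow, S.pow_prime, mul_one,
      mul_inv_cancel]
  have hwp : (w : G) ^ p = 1 := by
    rw [hw', ((S.comm w).symm.pow_left i).mul_pow, ← pow_mul, mul_comm i, pow_mul, S.pow_prime, one_pow,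
      one_mul] at hzp
    exact hzp
  have hw1 : (w : G) = 1 := by
    rcases (Nat.dvd_prime hG.prime).1 (orderOf_dvd_of_pow_eq_one hwp) with h' | h'
    · exact orderOf_eq_one_iff.1 h'
    · exact absurd (dvd_of_eq h'.symm) (S.reg w)
  rw [hw1, mul_one, hz] at hw'
  have hmap : Subgroup.map (MulAut.conj y⁻¹).toMonoidHom (Subgroup.zpowers S.u) ≤ Subgroup.zpowers S.u := by
    rw [MonoidHom.map_zpowers, Subgroup.zpowers_le]
    show y⁻¹ * S.u * y⁻¹⁻¹ ∈ Subgroup.zpowers S.u
    rw [inv_inv, hw']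
    exact Subgroup.pow_mem _ (Subgroup.mem_zpowers _) i
  have heq : Subgroup.map (MulAut.conj y⁻¹).toMonoidHom (Subgroup.zpowers S.u) = Subgroup.zpowers S.u :=
    Subgroup.eq_of_le_of_card_ge hmap
      (ge_of_eq (Subgroup.card_map_of_injective (MulAut.conj y⁻¹).injective))
  have hyinv : y⁻¹ ∈ S.N := by
    refine Subgroup.mem_normalizer_iff.2 fun x => ?_
    conv_rhs => rw [← heq]
    exact ((Subgroup.mem_map_iff_mem (f := (MulAut.conj y⁻¹).toMonoidHom) (MulAut.conj y⁻¹).injective).symm)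
  exact (inv_inv y) ▸ S.N.inv_mem hyinv

variable {M : Ideal AlgInt} [M.IsPrime] (hM : IsPModular p M)
include hM

/-- A block induced from the block of a character of the centralizer trivial on `u` meets its
restriction. -/
theorem row_ne_zero_of_induced
    {θ : IrrCharacter (S.C)}
    {φ : IrrCharacter S.V} (hφ : ∀ i v, (θ : S.C → ℂ) (S.elt i v) = (φ : S.V → ℂ) v)
    (hφ1 : (θ : S.C → ℂ) 1 = (φ : S.V → ℂ) 1)
    {b : Set (IrrCharacter (S.C))}
    {B : Set (IrrCharacter G)} (hind : IsInducedBlock M _ b B) (hθ : θ ∈ b) {χ : IrrCharacter G}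
    (hχ : χ ∈ B) (T : Subgroup G) (hT : ∀ g, g ∈ T ↔ ∃ y : S.N, (y : G) = g ∧ y • φ = φ) :
    row S (χ : G → ℂ) φ 1 ≠ 0 := by
  classical
  haveI := Fintype.ofFinite S.C
  set j : S.V → G := fun v => S.u * v with hj
  have hjinj : Function.Injective j := fun v w h => Subtype.ext (mul_left_cancel h)
  set f : G → ℂ := Function.extend j (fun v => conj ((φ : S.V → ℂ) v)) 0 with hf
  have hfint : ∀ x, IsIntegral ℤ (f x) := fun x => by
    by_cases hx : ∃ v, j v = x
    · obtain ⟨v, rfl⟩ := hx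
      rw [hf, hjinj.extend_apply, ← CharTheory.IsIrrCharacter.inv φ.2]
      exact CharTheory.IsCharacter.isIntegral (CharTheory.IsIrrCharacter.isCharacter φ.2) _
    · rw [hf, Function.extend_apply' _ _ _ hx]
      exact isIntegral_zero
  have hfsum : ∀ F : G → ℂ, ∑ x, f x * F x = ∑ v, conj ((φ : S.V → ℂ) v) * F (S.u * v) := fun F => by
    symm
    refine Finset.sum_bij_ne_zero (fun v _ _ => j v) (fun _ _ _ => Finset.mem_univ _)
      (fun a _ _ b _ _ h => hjinj h) ?_ ?_
    · intro x _ hne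
      by_cases hx : ∃ v, j v = x
      · obtain ⟨v, rfl⟩ := hx
        rw [hf, hjinj.extend_apply] at hne
        exact ⟨v, Finset.mem_univ _, hne, rfl⟩
      · refine absurd ?_ hne
        rw [hf, Function.extend_apply' _ _ _ hx, Pi.zero_apply, zero_mul]
    · intro v _ _
      rw [hf, hjinj.extend_apply]
  have hfC : ∀ c ∈ S.C, ∀ x, f (c * x * c⁻¹) = f x := by
    intro c hc x
    obtain ⟨i, w, hw⟩ := S.exists_elt hG ⟨c, hc⟩
    have hw' : c = S.u ^ i * (w : G) := congrArg Subtype.val hw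
    have hcj : ∀ v : S.V, c * j v * c⁻¹ = j (w * v * w⁻¹) := fun v => by
      simp only [hj, Subgroup.coe_mul, Subgroup.coe_inv, hw', mul_inv_rev]
      have e1 : S.u ^ i * ((w : G) * (S.u * v) * (w : G)⁻¹) * (S.u ^ i)⁻¹
          = S.u * ((w : G) * v * (w : G)⁻¹) := by
        have hcw := S.comm (w * v * w⁻¹)
        rw [Subgroup.coe_mul, Subgroup.coe_mul, Subgroup.coe_inv] at hcw
        rw [show (w : G) * (S.u * v) * (w : G)⁻¹ = S.u * ((w : G) * v * (w : G)⁻¹) by
          rw [← mul_assoc, (S.comm w).eq]; group, ← mul_assoc, ((Commute.refl S.u).pow_left i).eq,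
          mul_assoc S.u, (hcw.pow_right i).symm.eq]
        group
      rw [← e1]
      group
    by_cases hx : ∃ v, j v = x
    · obtain ⟨v, rfl⟩ := hx
      rw [hcj, hf, hjinj.extend_apply, hjinj.extend_apply,
        CharTheory.IsIrrCharacter.isClassFunction φ.2 v w]
    · rw [hf, Function.extend_apply' _ _ _ hx, Function.extend_apply' _ _ _ ?_]
      · rfl
      rintro ⟨v, hv⟩
      refine hx ⟨w⁻¹ * v * w, ?_⟩
      have h' := hcj (w⁻¹ * v * w)
      rw [show w * (w⁻¹ * v * w) * w⁻¹ = v by group, hv] at h'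
      exact mul_left_cancel (mul_right_cancel h')
  set a : G → ℂ := fun x => (Nat.card S.C : ℂ)⁻¹ * ∑ y : G, f (y⁻¹ * x * y) with ha
  have hac : IsClassFunction G a := fun x h => by
    simp only [ha]
    congr 1
    refine Fintype.sum_equiv (Equiv.mulLeft h⁻¹) _ _ fun y => congrArg f ?_
    simp only [Equiv.coe_mulLeft]
    group
  have hCne : (Nat.card S.C : ℂ) ≠ 0 := Nat.cast_ne_zero.2 Nat.card_pos.ne'
  have haR : ∀ x, MemLocalRing M (a x) := fun x => by
    haveI := Fintype.ofFinite (G ⧸ S.C)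
    have hinv : ∀ y, f (y⁻¹ * x * y) = f ((y : G ⧸ S.C).out⁻¹ * x * (y : G ⧸ S.C).out) := fun y => by
      obtain ⟨c, hc⟩ := QuotientGroup.mk_out_eq_mul S.C y
      rw [hc, ← hfC _ (S.C.inv_mem c.2) (y⁻¹ * x * y)]
      exact congrArg f (by group)
    have : a x = ∑ q : G ⧸ S.C, f (q.out⁻¹ * x * q.out) := by
      simp only [ha]
      rw [inv_mul_eq_iff_eq_mul₀ hCne, Finset.sum_congr rfl fun y _ => hinv y,
        ← Equiv.sum_comp (Subgroup.groupEquivQuotientProdSubgroup (s := S.C)).symm, Fintype.sum_prod_type,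
        Finset.mul_sum]
      refine Finset.sum_congr rfl fun q _ => ?_
      rw [Finset.sum_congr rfl (g := fun _ => f (q.out⁻¹ * x * q.out)) fun c _ => ?_, Finset.sum_const,
        Finset.card_univ, nsmul_eq_mul, Nat.card_eq_fintype_card]
      have e : (((Subgroup.groupEquivQuotientProdSubgroup (s := S.C)).symm (q, c) : G) : G ⧸ S.C) = q :=
        congrArg Prod.fst ((Subgroup.groupEquivQuotientProdSubgroup (s := S.C)).apply_symm_apply (q, c))
      rw [e]
    rw [this]
    exact memLocalRing_of_isIntegral (IsIntegral.sum _ fun q _ => hfint _)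
  have hmain := BlockLocal.memLocalIdeal_sum_sub_of_isInducedBlock hind hθ hχ
    (CharTheory.IsIrrCharacter.isClassFunction χ.2) hac haR
  have hR : ∑ x, a x * (χ : G → ℂ) x
      = (Nat.card G : ℂ) / (Nat.card S.C : ℂ) * ((Nat.card S.V : ℂ) * row S (χ : G → ℂ) φ 1) := by
    simp only [ha, Finset.sum_mul, Finset.mul_sum]
    simp_rw [mul_assoc ((Nat.card S.C : ℂ))⁻¹, ← Finset.mul_sum]
    rw [Finset.sum_comm, Finset.sum_congr rfl
      (g := fun _ => ∑ v, conj ((φ : S.V → ℂ) v) * (χ : G → ℂ) (S.u * v)) fun y _ => ?_]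
    · rw [Finset.sum_const, Finset.card_univ, nsmul_eq_mul, row, classInner, pow_one,
        mul_inv_cancel_left₀ (Nat.cast_ne_zero.2 Nat.card_pos.ne'), Nat.card_eq_fintype_card (α := G)]
      rw [Finset.sum_congr rfl fun v _ => mul_comm (conj ((φ : S.V → ℂ) v)) _]
      ring
    · rw [← hfsum, ← Equiv.sum_comp (MulAut.conj y).toEquiv]
      refine Finset.sum_congr rfl fun x _ => ?_
      simp only [MulEquiv.toEquiv_eq_coe, EquivLike.coe_coe, MulAut.conj_apply]
      rw [CharTheory.IsIrrCharacter.isClassFunction χ.2 x y]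
      exact congrArg (· * _) (congrArg f (by group))
  have hL : ∑ k : S.C, a k * (θ : S.C → ℂ) k
      = (Nat.card S.V : ℂ) * (Nat.card T : ℂ) / (Nat.card S.C : ℂ) := by
    have hTset : Finset.univ.filter (fun y : G => y ∈ T) = Finset.univ.filter fun y : G => y⁻¹ ∈ T := by
      ext y
      simp
    simp only [ha, Finset.sum_mul, Finset.mul_sum]
    simp_rw [mul_assoc ((Nat.card S.C : ℂ))⁻¹, ← Finset.mul_sum]
    rw [Finset.sum_comm, Finset.sum_congr rfl
      (g := fun y => if y ∈ T then (Nat.card S.V : ℂ) else 0) fun y _ => ?_]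
    · rw [← Finset.sum_filter, Finset.sum_const, nsmul_eq_mul, ← Fintype.card_subtype,
        ← Nat.card_eq_fintype_card]
      ring
    have hEstep : ∑ k : S.C, f (y⁻¹ * (k : G) * y) * (θ : S.C → ℂ) k
        = ∑ v, conj ((φ : S.V → ℂ) v) * Function.extend (Subtype.val : S.C → G) (θ : S.C → ℂ) 0 (y * (S.u * v) * y⁻¹) := by
      rw [← hfsum fun x => Function.extend (Subtype.val : S.C → G) (θ : S.C → ℂ) 0 (y * x * y⁻¹),
        ← Equiv.sum_comp (MulAut.conj y⁻¹).toEquiv]
      refine Finset.sum_bij_ne_zero (fun k _ _ => (k : G)) (fun _ _ _ => Finset.mem_univ _)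
        (fun a _ _ b _ _ h => Subtype.ext h) ?_ ?_
      · intro x _ hne
        by_cases hx : x ∈ S.C
        · refine ⟨⟨x, hx⟩, Finset.mem_univ _, ?_, rfl⟩
          simp only [MulEquiv.toEquiv_eq_coe, EquivLike.coe_coe, MulAut.conj_apply, inv_inv] at hne
          rw [show y * (y⁻¹ * x * y) * y⁻¹ = ((⟨x, hx⟩ : S.C) : G) by group,
            Subtype.val_injective.extend_apply] at hne
          exact hne
        · refine absurd ?_ hne
          simp only [MulEquiv.toEquiv_eq_coe, EquivLike.coe_coe, MulAut.conj_apply, inv_inv]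
          rw [show y * (y⁻¹ * x * y) * y⁻¹ = x by group,
            Function.extend_apply' _ _ _ (fun ⟨k, hk⟩ => hx (hk ▸ k.2)), Pi.zero_apply, mul_zero]
      · intro k _ _
        simp only [MulEquiv.toEquiv_eq_coe, EquivLike.coe_coe, MulAut.conj_apply, inv_inv]
        rw [show y * (y⁻¹ * (k : G) * y) * y⁻¹ = (k : G) by group, Subtype.val_injective.extend_apply]
    rw [hEstep]
    by_cases hyN : y ∈ S.N
    · obtain ⟨l, hl⟩ := S.exists_unit_conj ⟨y, hyN⟩
      have hval : ∀ v : S.V, Function.extend (Subtype.val : S.C → G) (θ : S.C → ℂ) 0 (y * (S.u * v) * y⁻¹)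
          = (((⟨y, hyN⟩ : S.N)⁻¹ • φ : IrrCharacter S.V) : S.V → ℂ) v := fun v => by
        have e : y * (S.u * v) * y⁻¹ = ((S.elt (l : ZMod p).val (S.conjV ⟨y, hyN⟩ v) : S.C) : G) := by
          show _ = S.u ^ (l : ZMod p).val * (S.conjV ⟨y, hyN⟩ v : G)
          rw [Sect.conjV_apply, ← hl]
          group
        rw [e, Subtype.val_injective.extend_apply, hφ]
        exact (S.smul_eq_iff ⟨y, hyN⟩ _ φ).1 (smul_inv_smul _ φ) v
      simp only [hval]
      have hc := CharTheory.classInner_irrCharacter ((⟨y, hyN⟩ : S.N)⁻¹ • φ) φ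
      rw [classInner, inv_mul_eq_iff_eq_mul₀ (Nat.cast_ne_zero.2 Nat.card_pos.ne')] at hc
      rw [Finset.sum_congr rfl fun v _ => mul_comm (conj ((φ : S.V → ℂ) v)) _, hc, mul_ite, mul_one, mul_zero]
      refine if_congr ?_ rfl rfl
      rw [hT y, inv_smul_eq_iff]
      exact ⟨fun h => ⟨⟨y, hyN⟩, rfl, h.symm⟩, fun ⟨y', hy', h⟩ => by
        rw [show (⟨y, hyN⟩ : S.N) = y' from Subtype.ext hy'.symm, h]⟩
    · have hnT : y ∉ T := fun h => by
        obtain ⟨y', hy', -⟩ := (hT y).1 h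
        exact hyN (hy' ▸ y'.2)
      rw [if_neg hnT]
      refine Finset.sum_eq_zero fun v _ => ?_
      rw [Function.extend_apply' _ _ _ (fun ⟨k, hk⟩ => hyN (S.mem_N_of_conj_mem hG (hk ▸ k.2))),
        Pi.zero_apply, mul_zero]
  intro hrow
  rw [hR, hrow, mul_zero, mul_zero, zero_div, sub_zero, hL, hφ1] at hmain
  have h2 := memLocalIdeal_mul_left (memLocalRing_irr (M := M) φ 1) hmain
  rw [mul_div_cancel₀ _ (CharTheory.apply_one_ne_zero_of_isIrr φ.2)] at h2
  have hCT : S.C ≤ T := fun c hc => by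
    have hcN : c ∈ S.N := Subgroup.centralizer_le_normalizer _ hc
    refine (hT c).2 ⟨⟨c, hcN⟩, rfl, (smul_iff_invariant S hφ hG _).2 fun x x' hx => ?_⟩
    rw [show x' = ⟨c, hc⟩ * x * (⟨c, hc⟩ : S.C)⁻¹ from Subtype.ext hx]
    exact CharTheory.IsIrrCharacter.isClassFunction θ.2 x ⟨c, hc⟩
  have hcardT : Nat.card T = Nat.card S.C * rowE S φ := by
    rw [← rowE_eq_relIndex S hG φ T hT, Subgroup.relIndex,
      ← Subgroup.card_mul_index (S.C.subgroupOf T),
      Nat.card_congr (Subgroup.subgroupOfEquivOfLe hCT).toEquiv]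
  rw [hcardT, Nat.cast_mul, mul_comm (Nat.card S.C : ℂ), ← mul_assoc, mul_div_cancel_right₀ _ hCne,
    ← Nat.cast_mul, memLocalIdeal_natCast_iff hM] at h2
  rcases hG.prime.dvd_mul.1 h2 with h3 | h3
  · exact S.not_dvd_card h3
  · have := Nat.le_of_dvd (rowE_pos hG S φ) h3
    have := Nat.le_of_dvd (by have := hG.prime.two_le; omega) (rowE_dvd hG S φ)
    have := hG.prime.two_le
    omega

end CfsgLib.DefectOne
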